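import Cfsg.Agent.Schur.PrimeCertPack

/-!
A faster check of the given combination of one rewriting: the words are rewritten in one pass for each step
and the tails are accumulated in packed form.
-/

set_option autoImplicit false

namespace CfsgLib.Schur.PrimePack

open PrimeCert

/-- Removal of a prefix. -/
noncomputable def stripF (l : List ℕ) : List ℕ → Option (List ℕ) :=
  List.rec (motive := fun _ => List ℕ → Option (List ℕ)) (fun w => some w)
    (fun a _ go w => List.casesOn (motive := fun _ => Option (List ℕ)) w none
      (fun b bs => bif Nat.beq a b then go bs else none)) l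

/-- Replacement of a factor at a given place. -/
noncomputable def replF (n : ℕ) (l r : List ℕ) : List ℕ → Option (List ℕ) :=
  Nat.rec (motive := fun _ => List ℕ → Option (List ℕ))
    (fun w => Option.casesOn (motive := fun _ => Option (List ℕ)) (stripF l w) none
      (fun rest => some (r ++ rest)))
    (fun _ go w => List.casesOn (motive := fun _ => Option (List ℕ)) w none
      (fun b bs => Option.casesOn (motive := fun _ => Option (List ℕ)) (go bs) none
        (fun rest => some (b :: rest)))) n

/-- The rewriting by one rule in a given direction. -/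
noncomputable def stepF (q : List ℕ × List ℕ) (n : ℕ) (f : Bool) (w : List ℕ) : Option (List ℕ) :=
  bif f then replF n q.1 q.2 w else replF n q.2 q.1 w

/-- A sequence of steps with packed tails. -/
noncomputable def runF (c : Cert) (N : ℕ) (es : List (ℕ × ℕ × Bool)) :
    List ℕ → ℕ → Option (List ℕ × ℕ) :=
  List.rec (motive := fun _ => List ℕ → ℕ → Option (List ℕ × ℕ)) (fun w K => some (w, K))
    (fun e _ go w K => bif Nat.blt e.2.1 N then
      Option.casesOn (motive := fun _ => Option (List ℕ × ℕ))
        (stepF (c.rules.getD e.2.1 ([], [])) e.1 e.2.2 w) none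
        (fun w' => go w' (Nat.add K (Nat.shiftLeft (bif e.2.2 then 1 else c.p - 1) (16 * e.2.1))))
      else none) es

/-- Equality of lists of numbers. -/
noncomputable def eqLF (a : List ℕ) : List ℕ → Bool :=
  List.rec (motive := fun _ => List ℕ → Bool)
    (fun b => List.casesOn (motive := fun _ => Bool) b true (fun _ _ => false))
    (fun x _ go b => List.casesOn (motive := fun _ => Bool) b false
      (fun y ys => bif Nat.beq x y then go ys else false)) a

/-- The fast form of the check of one given combination. -/
noncomputable def maskFast (c : Cert) (M : List (List (ℕ × ℕ))) (N i : ℕ) : Bool :=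
  let e := c.eqs.getD i ([], [], [])
  let m := M.getD i []
  Nat.beq N c.rules.length && (m.all fun q => Nat.blt q.1 N) && Nat.blt (totalM m) 65536 &&
    Nat.blt (e.2.1.length * c.p + e.2.2.length * c.p * c.p) 65536 &&
    Option.casesOn (motive := fun _ => Bool) (runF c N e.2.1 e.1 0) false (fun a =>
      Option.casesOn (motive := fun _ => Bool) (runF c N e.2.2 e.1 0) false (fun b =>
        eqLF a.1 b.1 && cmpSlots c.p N (a.2 + b.2 * (c.p - 1)) (packM m)))

theorem stripF_eq : ∀ (l w rest : List ℕ), stripF l w = some rest → w = l ++ rest
  | [], w, rest, h => by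
    simp only [stripF, Option.some.injEq] at h
    simp [h]
  | a :: l, [], rest, h => by simp [stripF] at h
  | a :: l, b :: bs, rest, h => by
    change (bif Nat.beq a b then stripF l bs else none) = some rest at h
    cases hb : Nat.beq a b <;> rw [hb] at h
    · simp at h
    · rw [Nat.eq_of_beq_eq_true hb, stripF_eq l bs rest h, List.cons_append]

theorem replF_eq (l r : List ℕ) : ∀ (n : ℕ) (w w' : List ℕ), replF n l r w = some w' →
    (w.drop n).take l.length = l ∧ w' = w.take n ++ r ++ w.drop (n + l.length)
  | 0, w, w', h => by
    change Option.casesOn (motive := fun _ => Option (List ℕ)) (stripF l w) none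
      (fun rest => some (r ++ rest)) = some w' at h
    cases hs : stripF l w with
    | none => rw [hs] at h; simp at h
    | some rest =>
      rw [hs] at h
      simp only [Option.some.injEq] at h
      rw [stripF_eq l w rest hs, ← h]
      simp
  | n + 1, [], w', h => by simp [replF] at h
  | n + 1, b :: bs, w', h => by
    change Option.casesOn (motive := fun _ => Option (List ℕ)) (replF n l r bs) none
        (fun rest => some (b :: rest)) = some w' at h
    cases hs : replF n l r bs with
    | none => rw [hs] at h; simp at h
    | some rest =>
      rw [hs] at h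
      simp only [Option.some.injEq] at h
      obtain ⟨h1, h2⟩ := replF_eq l r n bs rest hs
      rw [← h, h2]
      simp [h1, Nat.add_right_comm n 1]

theorem packM_append (a b : List (ℕ × ℕ)) : packM (a ++ b) = packM a + packM b := by
  induction a with
  | nil => simp [packM]
  | cons q a ih => simp only [List.cons_append, packM, ih, Nat.add_assoc]

theorem totalM_append (a b : List (ℕ × ℕ)) : totalM (a ++ b) = totalM a + totalM b := by
  induction a with
  | nil => simp [totalM]
  | cons q a ih => simp only [List.cons_append, totalM, ih, Nat.add_assoc]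

theorem packM_scale (e : ℕ) (a : List (ℕ × ℕ)) : packM (scale e a) = packM a * e := by
  induction a with
  | nil => simp [packM, scale]
  | cons q a ih =>
    rw [show scale e (q :: a) = (q.1, q.2 * e) :: scale e a from rfl, packM, packM, ih, Nat.add_mul,
      Nat.shiftLeft_eq, Nat.shiftLeft_eq, Nat.mul_right_comm]

theorem totalM_scale (e : ℕ) (a : List (ℕ × ℕ)) : totalM (scale e a) = totalM a * e := by
  induction a with
  | nil => simp [totalM, scale]
  | cons q a ih =>
    rw [show scale e (q :: a) = (q.1, q.2 * e) :: scale e a from rfl, totalM, totalM, ih, Nat.add_mul]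

theorem runF_eq (c : Cert) : ∀ (es : List (ℕ × ℕ × Bool)) (w : List ℕ) (K : ℕ) (res : List ℕ × ℕ)
    (t : List (ℕ × ℕ)), runF c c.rules.length es w K = some res →
    ∃ t', run c es (w, t) = some (res.1, t ++ t') ∧ res.2 = K + packM t' ∧
      totalM t' ≤ es.length * (c.p + 1) ∧ (∀ q ∈ t', q.1 < c.rules.length) ∧
      (1 ≤ c.p → totalM t' ≤ es.length * c.p)
  | [], w, K, res, t, h => by
    simp only [runF, Option.some.injEq] at h
    subst h
    exact ⟨[], by simp [run], by simp [packM], by simp [totalM], by simp, fun _ => by simp [totalM]⟩
  | ⟨n, r, f⟩ :: es, w, K, res, t, h => by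
    change (bif Nat.blt r c.rules.length then
      Option.casesOn (motive := fun _ => Option (List ℕ × ℕ))
        (stepF (c.rules.getD r ([], [])) n f w) none
        (fun w' => runF c c.rules.length es w'
          (K + ((bif f then 1 else c.p - 1) <<< (16 * r))))
      else none) = some res at h
    cases hb : Nat.blt r c.rules.length <;> rw [hb] at h
    · simp at h
    have hr : r < c.rules.length := Nat.le_of_ble_eq_true hb
    cases hs : stepF (c.rules.getD r ([], [])) n f w with
    | none => rw [hs] at h; simp at h
    | some w' =>
      rw [hs] at h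
      obtain ⟨t', h1, h2, h3, h4, h5⟩ := runF_eq c es w' _ res (t ++ tail1 c r f) h
      have hstep : step c (n, r, f) (w, t) = some (w', t ++ tail1 c r f) := by
        have hh : (w.drop n).take (sides c r f).1.length = (sides c r f).1 ∧
            w' = w.take n ++ (sides c r f).2 ++ w.drop (n + (sides c r f).1.length) := by
          cases f
          · exact replF_eq _ _ n w w' hs
          · exact replF_eq _ _ n w w' hs
        simp only [step]
        rw [if_pos (by simp [hh.1, hr]), ← hh.2]
      refine ⟨tail1 c r f ++ t', ?_, ?_, ?_, ?_, fun hp => ?_⟩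
      · rw [run, hstep, Option.bind_some, h1, List.append_assoc]
      · rw [h2, packM_append, Nat.add_assoc]
        congr 2
        cases f <;> simp [tail1, packM]
      · rw [totalM_append, List.length_cons, Nat.add_mul]
        have : totalM (tail1 c r f) ≤ c.p + 1 := by cases f <;> simp [tail1, totalM] <;> omega
        omega
      · intro q hq
        rw [List.mem_append] at hq
        rcases hq with hq | hq
        · cases f <;> simp [tail1] at hq <;> rw [hq] <;> exact hr
        · exact h4 q hq
      · rw [totalM_append, List.length_cons, Nat.add_mul]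
        have : totalM (tail1 c r f) ≤ c.p := by cases f <;> simp [tail1, totalM] <;> omega
        have := h5 hp
        omega

theorem eqLF_eq : ∀ a b : List ℕ, eqLF a b = true → a = b
  | [], [], _ => rfl
  | [], _ :: _, h => by simp [eqLF] at h
  | _ :: _, [], h => by simp [eqLF] at h
  | x :: xs, y :: ys, h => by
    change (bif Nat.beq x y then eqLF xs ys else false) = true at h
    cases hb : Nat.beq x y <;> rw [hb] at h
    · simp at h
    · rw [Nat.eq_of_beq_eq_true hb, eqLF_eq xs ys h]

/-- The fast check implies the check of a given combination. -/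
theorem maskOK_of_fast {c : Cert} {M : List (List (ℕ × ℕ))} {N i : ℕ} (hp : 1 ≤ c.p)
    (h : maskFast c M N i = true) : maskOK c M i = true := by
  simp only [maskFast, Bool.and_eq_true] at h
  obtain ⟨⟨⟨⟨hN, hlt⟩, htot⟩, hlen⟩, hrun⟩ := h
  obtain rfl := Nat.eq_of_beq_eq_true hN
  set e := c.eqs.getD i ([], [], []) with he
  set m := M.getD i []
  cases ha : runF c c.rules.length e.2.1 e.1 0 with
  | none => rw [ha] at hrun; simp at hrun
  | some a =>
    rw [ha] at hrun
    cases hb : runF c c.rules.length e.2.2 e.1 0 with
    | none => rw [hb] at hrun; simp at hrun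
    | some b =>
      rw [hb] at hrun
      simp only [Bool.and_eq_true] at hrun
      obtain ⟨t1, r1, k1, -, b1, s1⟩ := runF_eq c _ _ _ a [] ha
      obtain ⟨t2, r2, k2, -, b2, s2⟩ := runF_eq c _ _ _ b [] hb
      have hmask : eqMask c e = t1 ++ scale (c.p - 1) t2 := by
        rw [eqMask, r1, r2]
        simp [eqLF_eq _ _ hrun.1]
      rw [maskOK, ← he, hmask, agreeFast]
      simp only [Bool.and_eq_true]
      refine ⟨⟨⟨⟨?_, hlt⟩, ?_⟩, htot⟩, ?_⟩
      · simp only [List.all_eq_true, List.mem_append]
        rintro q (hq | hq)
        · exact Nat.ble_eq_true_of_le (b1 q hq)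
        · simp only [scale, List.mem_map] at hq
          obtain ⟨x, hx, rfl⟩ := hq
          exact Nat.ble_eq_true_of_le (b2 x hx)
      · refine Nat.ble_eq_true_of_le ?_
        have hl := Nat.le_of_ble_eq_true hlen
        rw [totalM_append, totalM_scale]
        have h1 := s1 hp
        have h2 := Nat.mul_le_mul (s2 hp) (Nat.sub_le c.p 1)
        omega
      · rw [packM_append, packM_scale, show packM t1 = a.2 by rw [k1, Nat.zero_add],
          show packM t2 = b.2 by rw [k2, Nat.zero_add]]
        exact hrun.2

end CfsgLib.Schur.PrimePack
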