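import Cfsg.Agent.Schur.PrimeCert
import Mathlib

/-!
A faster check of certificates: the combinations of tails of the rewritings are given as data and compared
through packed coefficients.
-/

set_option autoImplicit false

namespace CfsgLib.Schur.PrimePack

open PrimeCert

/-- Packed coefficients, sixteen bits for each tail. -/
def packM : List (ℕ × ℕ) → ℕ
  | [] => 0
  | q :: m => (q.2 <<< (16 * q.1)) + packM m

/-- The sum of all coefficients. -/
def totalM : List (ℕ × ℕ) → ℕ
  | [] => 0
  | q :: m => q.2 + totalM m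

/-- Comparison of the first slots modulo the prime. -/
def cmpSlots (p : ℕ) : ℕ → ℕ → ℕ → Bool
  | 0, _, _ => true
  | n + 1, P, Q => Nat.beq (P % 65536 % p) (Q % 65536 % p) && cmpSlots p n (P >>> 16) (Q >>> 16)

/-- Two combinations agree modulo the prime. -/
def agreeFast (c : Cert) (N : ℕ) (m m' : List (ℕ × ℕ)) : Bool :=
  (m.all fun q => Nat.blt q.1 N) && (m'.all fun q => Nat.blt q.1 N) &&
    Nat.blt (totalM m) 65536 && Nat.blt (totalM m') 65536 && cmpSlots c.p N (packM m) (packM m')

/-- A combination of given combinations. -/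
def selectM (M : List (List (ℕ × ℕ))) : List (ℕ × ℕ) → List (ℕ × ℕ)
  | [] => []
  | q :: l => scale q.2 (M.getD q.1 []) ++ selectM M l

/-- The given combination of one rewriting is right. -/
def maskOK (c : Cert) (M : List (List (ℕ × ℕ))) (i : ℕ) : Bool :=
  agreeFast c c.rules.length (eqMask c (c.eqs.getD i ([], [], []))) (M.getD i [])

/-- The fast check of one new tail. -/
def pickFast (c : Cert) (M : List (List (ℕ × ℕ))) (r : ℕ) : Bool :=
  ((c.picks.getD r []).all fun q => Nat.blt q.1 M.length) && agreeFast c c.rules.length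
    ((r, 1) :: valM c (c.rules.getD r ([], [])).1 ++ scale (c.p - 1) (valM c (c.rules.getD r ([], [])).2))
    (selectM M (c.picks.getD r []))

theorem totalM_ge (m : List (ℕ × ℕ)) (b : ℕ) : coef m b ≤ totalM m := by
  induction m with
  | nil => simp [coef]
  | cons q m ih =>
    rw [coef, totalM]
    split <;> omega

theorem packM_eq {N : ℕ} : ∀ {m : List (ℕ × ℕ)}, (∀ q ∈ m, q.1 < N) →
    packM m = ∑ b ∈ Finset.range N, coef m b * 65536 ^ b
  | [], _ => by simp [packM, coef]
  | q :: m, h => by
    rw [packM, packM_eq fun x hx => h x (List.mem_cons_of_mem _ hx), Nat.shiftLeft_eq, pow_mul,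
      show (2 : ℕ) ^ 16 = 65536 by norm_num]
    simp only [coef, add_mul, Finset.sum_add_distrib, beq_iff_eq, ite_mul, zero_mul]
    rw [Finset.sum_ite_eq, if_pos (Finset.mem_range.2 (h q List.mem_cons_self))]

theorem sum_div (N : ℕ) (f : ℕ → ℕ) (hf : ∀ b, f b < 65536) :
    (∑ b ∈ Finset.range (N + 1), f b * 65536 ^ b) % 65536 = f 0 ∧
      (∑ b ∈ Finset.range (N + 1), f b * 65536 ^ b) >>> 16 =
        ∑ b ∈ Finset.range N, f (b + 1) * 65536 ^ b := by
  rw [Finset.sum_range_succ']
  have : ∑ b ∈ Finset.range N, f (b + 1) * 65536 ^ (b + 1) =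
      65536 * ∑ b ∈ Finset.range N, f (b + 1) * 65536 ^ b := by
    rw [Finset.mul_sum]
    exact Finset.sum_congr rfl fun b _ => by ring
  rw [this, pow_zero, mul_one, Nat.shiftRight_eq_div_pow, show (2 : ℕ) ^ 16 = 65536 by norm_num]
  exact ⟨by rw [Nat.mul_add_mod, Nat.mod_eq_of_lt (hf 0)],
    by rw [Nat.mul_add_div (by norm_num), Nat.div_eq_of_lt (hf 0), add_zero]⟩

theorem cmpSlots_spec (p : ℕ) : ∀ (N : ℕ) (f g : ℕ → ℕ), (∀ b, f b < 65536) → (∀ b, g b < 65536) →
    cmpSlots p N (∑ b ∈ Finset.range N, f b * 65536 ^ b) (∑ b ∈ Finset.range N, g b * 65536 ^ b) = true →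
    ∀ b < N, f b % p = g b % p
  | 0, _, _, _, _, _, b, hb => absurd hb (Nat.not_lt_zero b)
  | N + 1, f, g, hf, hg, h, b, hb => by
    rw [cmpSlots, Bool.and_eq_true, (sum_div N f hf).1, (sum_div N f hf).2, (sum_div N g hg).1,
      (sum_div N g hg).2] at h
    cases b with
    | zero => exact Nat.eq_of_beq_eq_true h.1
    | succ b =>
      exact cmpSlots_spec p N (fun b => f (b + 1)) (fun b => g (b + 1)) (fun b => hf _) (fun b => hg _)
        h.2 b (by omega)

theorem agreeFast_spec {c : Cert} {N : ℕ} {m m' : List (ℕ × ℕ)} (h : agreeFast c N m m' = true) :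
    ∀ b < N, coef m b % c.p = coef m' b % c.p := by
  simp only [agreeFast, Bool.and_eq_true, List.all_eq_true] at h
  obtain ⟨⟨⟨⟨h1, h2⟩, h3⟩, h4⟩, h5⟩ := h
  have h3' : totalM m < 65536 := Nat.le_of_ble_eq_true h3
  have h4' : totalM m' < 65536 := Nat.le_of_ble_eq_true h4
  rw [packM_eq fun q hq => Nat.le_of_ble_eq_true (h1 q hq),
    packM_eq fun q hq => Nat.le_of_ble_eq_true (h2 q hq)] at h5
  exact cmpSlots_spec c.p N (coef m) (coef m') (fun b => lt_of_le_of_lt (totalM_ge m b) h3')
    (fun b => lt_of_le_of_lt (totalM_ge m' b) h4') h5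

/-- The fast checks imply the check of a certificate. -/
theorem ok_of_fast {c : Cert} (M : List (List (ℕ × ℕ))) (hlen : c.picks.length ≤ c.rules.length)
    (hshape : shapeOK c = true) (hmask : ∀ i < M.length, maskOK c M i = true)
    (hpick : ∀ r < c.picks.length, pickFast c M r = true) : ok c = true := by
  simp only [ok, Bool.and_eq_true, decide_eq_true_eq, List.all_eq_true, List.mem_range]
  refine ⟨⟨hlen, hshape⟩, fun r hr => ?_⟩
  have h := hpick r hr
  simp only [pickFast, Bool.and_eq_true, List.all_eq_true] at h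
  simp only [pickOK, agree, List.all_eq_true, List.mem_range, beq_iff_eq]
  intro b hb
  rw [agreeFast_spec h.2 b hb]
  have hsel : ∀ l : List (ℕ × ℕ), (∀ q ∈ l, q.1 < M.length) →
      coef (selectM M l) b % c.p = coef (select c l) b % c.p := by
    intro l
    induction l with
    | nil => intro _; rfl
    | cons q l ih =>
      intro hl
      rw [selectM, select, coef_append, coef_append, coef_scale, coef_scale]
      refine Nat.ModEq.add (Nat.ModEq.mul_right _ ?_) (ih fun x hx => hl x (List.mem_cons_of_mem _ hx))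
      exact (agreeFast_spec (hmask q.1 (hl q List.mem_cons_self)) b hb).symm
  exact hsel _ fun q hq => Nat.le_of_ble_eq_true (h.1 q hq)

end CfsgLib.Schur.PrimePack
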