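import Cfsg.Agent.Schur.OddSwap

/-!
The `p`-part of a Schur multiplier when a Sylow `p`-subgroup is extraspecial of order `p ^ 3` and an
element scales two generators.
-/

set_option autoImplicit false

namespace CfsgLib.Schur.ExtraspecialScale

open Subgroup CfsgLib.Schur.ThreeGroups
open scoped commutatorElement

universe u v

variable {Γ : Type u} {G : Type v} [Group Γ] [Group G]

theorem commutator_pow_pow {C X : Γ} (h : ⁅C, X⁆ ∈ center Γ) (m n : ℕ) :
    ⁅C ^ m, X ^ n⁆ = ⁅C, X⁆ ^ (m * n) := by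
  set k := ⁅C, X⁆ with hk
  have hkx : ∀ y, Commute k y := fun y => (mem_center_iff.1 h y).symm
  have e : ∀ m : ℕ, C ^ m * X * (C ^ m)⁻¹ = k ^ m * X := by
    intro m
    induction m with
    | zero => simp
    | succ m ih =>
      calc C ^ (m + 1) * X * (C ^ (m + 1))⁻¹ = C * (C ^ m * X * (C ^ m)⁻¹) * C⁻¹ := by
            rw [pow_succ']; group
        _ = C * k ^ m * X * C⁻¹ := by rw [ih]; group
        _ = k ^ m * (C * X * C⁻¹) := by rw [← ((hkx C).pow_left m).eq]; group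
        _ = k ^ (m + 1) * X := by
            rw [show C * X * C⁻¹ = k * X by rw [hk, commutatorElement_def]; group, pow_succ,
              mul_assoc]
  have e2 : C ^ m * X ^ n * (C ^ m)⁻¹ = k ^ (m * n) * X ^ n := by
    rw [← conj_pow, e, ((hkx X).pow_left m).mul_pow, ← pow_mul]
  rw [commutatorElement_def, e2]
  group

/-- An extraspecial group of order `p ^ 3` with two generators scaled by an element. -/
theorem not_dvd_of_scale {p : ℕ} [Fact p.Prime] [Finite Γ] {σ : Γ →* G}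
    (hσ : Cfsg.IsStemExtension σ) (H : Subgroup G) (hidx : ¬ p ∣ H.index) {a b g : G}
    (hH : H ≤ closure {a, b}) (ha : a ^ p = 1) (hb : b ^ p = 1) (hc : ⁅a, b⁆ ^ p = 1)
    (hca : Commute ⁅a, b⁆ a) (hcb : Commute ⁅a, b⁆ b) (hne : ⁅a, b⁆ ≠ 1) {r s t : ℕ}
    (hga : g * a * g⁻¹ = a ^ r) (hgb : g * b * g⁻¹ = b ^ s)
    (hgc : g * ⁅a, b⁆ * g⁻¹ = ⁅a, b⁆ ^ t) (hr : t * r % p ≠ 1) (hs : t * s % p ≠ 1) :
    ¬ p ∣ Nat.card σ.ker := by
  obtain ⟨A, hA⟩ := hσ.1 a
  obtain ⟨B, hB⟩ := hσ.1 b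
  obtain ⟨T, hT⟩ := hσ.1 g
  have hK := hσ.2.1
  set C := ⁅A, B⁆ with hCdef
  have hC : σ C = ⁅a, b⁆ := by rw [hCdef, map_commutatorElement, hA, hB]
  have lift : ∀ (X : Γ) (x : G) (n : ℕ), σ X = x → x ^ p = 1 → Commute ⁅a, b⁆ x →
      g * x * g⁻¹ = x ^ n → t * n % p ≠ 1 → Commute C X := by
    intro X x n hX hxp hcx hgx hn
    have hk : ⁅C, X⁆ ∈ center Γ := hK (MonoidHom.mem_ker.2 (by
      rw [map_commutatorElement, hC, hX, commutatorElement_eq_one_iff_commute.2 hcx]))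
    have hp : ⁅C, X⁆ ^ p = 1 := OddSwap.commutator_pow
      (hK (MonoidHom.mem_ker.2 (by rw [map_pow, hC, hc]))) (mem_center_iff.1 hk C).symm
      (mem_center_iff.1 hk X).symm
    obtain ⟨u, hu, hu'⟩ : ∃ u ∈ center Γ, T * C * T⁻¹ = u * C ^ t :=
      ⟨T * C * T⁻¹ * (C ^ t)⁻¹, hK (MonoidHom.mem_ker.2 (by
        rw [map_mul, map_mul, map_mul, map_inv, map_inv, map_pow, hC, hT, hgc, mul_inv_cancel])),
        (inv_mul_cancel_right _ _).symm⟩
    obtain ⟨w, hw, hw'⟩ : ∃ w ∈ center Γ, T * X * T⁻¹ = w * X ^ n :=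
      ⟨T * X * T⁻¹ * (X ^ n)⁻¹, hK (MonoidHom.mem_ker.2 (by
        rw [map_mul, map_mul, map_mul, map_inv, map_inv, map_pow, hX, hT, hgx, mul_inv_cancel])),
        (inv_mul_cancel_right _ _).symm⟩
    have hk2 : ⁅C, X⁆ = ⁅C, X⁆ ^ (t * n) := by
      calc ⁅C, X⁆ = T * ⁅C, X⁆ * T⁻¹ := by rw [mem_center_iff.1 hk T, mul_inv_cancel_right]
        _ = ⁅T * C * T⁻¹, T * X * T⁻¹⁆ := by simp only [commutatorElement_def]; group
        _ = ⁅C, X⁆ ^ (t * n) := by
            rw [hu', hw', commutator_mul_central_left hu, commutator_mul_central_right hw,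
              commutator_pow_pow hk]
    refine commutatorElement_eq_one_iff_commute.1 ?_
    by_contra h1
    refine hn ?_
    have ho := orderOf_eq_prime hp h1
    have h3 : t * n ≡ 1 [MOD orderOf ⁅C, X⁆] := pow_eq_pow_iff_modEq.1 (by rw [pow_one, ← hk2])
    rw [ho] at h3
    rw [h3, Nat.one_mod_eq_one]
    exact (Fact.out : p.Prime).ne_one
  have hCA := lift A a r hA ha hca hga hr
  have hCB := lift B b s hB hb hcb hgb hs
  have hCp : C ^ p = 1 :=
    OddSwap.commutator_pow (hK (MonoidHom.mem_ker.2 (by rw [map_pow, hA, ha]))) hCA hCB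
  refine not_dvd_card_ker hσ H hidx fun z hzK hz => ?_
  obtain ⟨i, rfl⟩ := commutator_le_zpowers_commutator σ.ker hK hCA hCB _
    (comap_le_closure σ H hH hA hB) hz
  have h1 : ⁅a, b⁆ ^ i = 1 := by rw [← hC, ← map_zpow]; exact MonoidHom.mem_ker.1 hzK
  rw [← orderOf_dvd_iff_zpow_eq_one, orderOf_eq_prime hc hne] at h1
  obtain ⟨j, rfl⟩ := h1
  show C ^ ((p : ℤ) * j) = 1
  rw [zpow_mul, zpow_natCast, hCp, one_zpow]

end CfsgLib.Schur.ExtraspecialScale
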