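import Cfsg.Agent.Schur.PackedPerm

/-!
Base and transversal checks for groups of permutations given by packed tables.
-/

set_option autoImplicit false

namespace CfsgLib.Schur.PackedBase

open CfsgLib.CosetEnum

/-- No entry occurs twice, and none has its bit in the mask. -/
def freshB : List ℕ → ℕ → Bool
  | [], _ => true
  | x :: l, m => !m.testBit x && freshB l (m ||| (1 <<< x))

theorem freshB_spec : ∀ (l : List ℕ) (m : ℕ), freshB l m = true →
    l.Nodup ∧ ∀ x ∈ l, m.testBit x = false
  | [], _, _ => ⟨List.nodup_nil, fun _ h => absurd h (List.not_mem_nil)⟩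
  | x :: l, m, h => by
    simp only [freshB, Bool.and_eq_true, Bool.not_eq_true'] at h
    obtain ⟨h1, h2⟩ := freshB_spec l _ h.2
    refine ⟨List.nodup_cons.2 ⟨fun hx => ?_, h1⟩, fun y hy => ?_⟩
    · have := h2 x hx
      simp [Nat.testBit_or, Nat.shiftLeft_eq] at this
    · rcases List.mem_cons.1 hy with rfl | hy
      · exact h.1
      · have := h2 y hy
        simp only [Nat.testBit_or, Bool.or_eq_false_iff] at this
        exact this.1

/-- The words of a level fix the earlier base points and move its own to distinct points. -/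
def levelOK (n : ℕ) (fwd : List ℕ) (levels : List (List (List ℕ))) (base : List ℕ) (j : ℕ) : Bool :=
  (levels.getD j []).all (fun w => w.all (fun x => decide (x < fwd.length)) &&
      (List.range j).all fun i => PackedPerm.act fwd w (base.getD i 0) == base.getD i 0) &&
    decide (base.getD j 0 < n) &&
    freshB ((levels.getD j []).map fun w => PackedPerm.act fwd w (base.getD j 0)) 0

variable {n : ℕ} {fwd bwd : List ℕ} (h : PackedPerm.tablesOK n fwd bwd = true)
  (K : Subgroup (Equiv.Perm (Fin n))) (levels : List (List (List ℕ))) (base : List ℕ)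

/-- The elements fixing the first base points. -/
def fixer (j : ℕ) : Subgroup (Equiv.Perm (Fin n)) where
  carrier := {g | g ∈ K ∧ ∀ i < j, ∀ p : Fin n, p.val = base.getD i 0 → g p = p}
  one_mem' := ⟨one_mem K, fun _ _ _ _ => rfl⟩
  mul_mem' := fun {a b} ha hb => ⟨mul_mem ha.1 hb.1, fun i hi p hp => by
    rw [Equiv.Perm.mul_apply, hb.2 i hi p hp, ha.2 i hi p hp]⟩
  inv_mem' := fun {a} ha => ⟨inv_mem ha.1, fun i hi p hp =>
    (Equiv.symm_apply_eq a).2 (ha.2 i hi p hp).symm⟩

include h

theorem step {j : ℕ} (hok : levelOK n fwd levels base j = true)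
    (hmem : ∀ w ∈ levels.getD j [], gword (PackedPerm.toPerm h) w ∈ K) :
    (levels.getD j []).length * Nat.card (fixer K base (j + 1)) ≤ Nat.card (fixer K base j) := by
  simp only [levelOK, Bool.and_eq_true, List.all_eq_true (l := levels.getD j []),
    decide_eq_true_eq] at hok
  obtain ⟨⟨hw, hb⟩, hd⟩ := hok
  obtain ⟨hnd, -⟩ := freshB_spec _ _ hd
  set L := levels.getD j [] with hL
  have hin : ∀ i : Fin L.length, ∀ s : fixer K base (j + 1),
      gword (PackedPerm.toPerm h) (L.get i) * s.1 ∈ fixer K base j := by
    intro i s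
    have hi := hw _ (List.get_mem L i)
    refine ⟨mul_mem (hmem _ (List.get_mem L i)) s.2.1, fun k hk p hp => Fin.ext ?_⟩
    rw [Equiv.Perm.mul_apply, s.2.2 k (by omega) p hp, PackedPerm.word_apply h hi.1, hp]
    exact beq_iff_eq.1 (List.all_eq_true.1 hi.2 k (List.mem_range.2 hk))
  let f : Fin L.length × fixer K base (j + 1) → fixer K base j := fun q =>
    ⟨gword (PackedPerm.toPerm h) (L.get q.1) * q.2.1, hin q.1 q.2⟩
  have hf : Function.Injective f := by
    rintro ⟨a, s⟩ ⟨b, t⟩ e
    have e' : gword (PackedPerm.toPerm h) (L.get a) * s.1 =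
        gword (PackedPerm.toPerm h) (L.get b) * t.1 := congrArg Subtype.val e
    have hp := congrArg (fun g : Equiv.Perm (Fin n) => (g ⟨base.getD j 0, hb⟩).val) e'
    simp only [Equiv.Perm.mul_apply, s.2.2 j (by omega) ⟨_, hb⟩ rfl,
      t.2.2 j (by omega) ⟨_, hb⟩ rfl] at hp
    rw [PackedPerm.word_apply h (hw _ (List.get_mem L a)).1,
      PackedPerm.word_apply h (hw _ (List.get_mem L b)).1] at hp
    have hab : a = b := Fin.ext ((hnd.getElem_inj_iff (hi := by simp) (hj := by simp)).1
      (by simpa [List.getElem_map, List.get_eq_getElem] using hp))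
    subst hab
    exact Prod.ext rfl (Subtype.ext (mul_left_cancel e'))
  have := Nat.card_le_card_of_injective f hf
  rwa [Nat.card_prod, Nat.card_eq_fintype_card (α := Fin L.length), Fintype.card_fin] at this

theorem prod_mul_card_le (m : ℕ) (hok : (List.range m).all (levelOK n fwd levels base) = true)
    (hmem : ∀ k < m, ∀ w ∈ levels.getD k [], gword (PackedPerm.toPerm h) w ∈ K) :
    ((List.range m).map fun j => (levels.getD j []).length).prod * Nat.card (fixer K base m) ≤
      Nat.card K := by
  induction m with
  | zero =>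
    rw [List.range_zero, List.map_nil, List.prod_nil, one_mul]
    exact Nat.card_le_card_of_injective (fun g => ⟨g.1, g.2.1⟩)
      fun a b e => Subtype.ext (congrArg Subtype.val e :)
  | succ m ih =>
    have hok' := List.all_eq_true.1 hok
    rw [List.range_succ, List.map_append, List.prod_append, List.map_singleton, List.prod_singleton,
      mul_assoc]
    refine le_trans (Nat.mul_le_mul_left _ (step h K levels base
      (hok' m (List.mem_range.2 (Nat.lt_succ_self m))) (hmem m (Nat.lt_succ_self m)))) ?_
    exact ih (List.all_eq_true.2 fun k hk => hok' k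
        (List.mem_range.2 (Nat.lt_succ_of_lt (List.mem_range.1 hk))))
      fun k hk => hmem k (Nat.lt_succ_of_lt hk)

theorem prod_le_card (m : ℕ) (hok : (List.range m).all (levelOK n fwd levels base) = true)
    (hmem : ∀ k < m, ∀ w ∈ levels.getD k [], gword (PackedPerm.toPerm h) w ∈ K) :
    ((List.range m).map fun j => (levels.getD j []).length).prod ≤ Nat.card K :=
  le_trans (Nat.le_mul_of_pos_right _ Nat.card_pos) (prod_mul_card_le h K levels base m hok hmem)

theorem eq_one_of_base (m : ℕ) (hok : (List.range m).all (levelOK n fwd levels base) = true)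
    (hmem : ∀ k < m, ∀ w ∈ levels.getD k [], gword (PackedPerm.toPerm h) w ∈ K)
    (hcard : ((List.range m).map fun j => (levels.getD j []).length).prod = Nat.card K)
    {g : Equiv.Perm (Fin n)} (hg : g ∈ K)
    (hfix : ∀ j < m, ∀ i : Fin n, i.val = base.getD j 0 → g i = i) : g = 1 := by
  have hle := prod_mul_card_le h K levels base m hok hmem
  rw [hcard] at hle
  have h1 : Nat.card (fixer K base m) ≤ 1 :=
    Nat.le_of_mul_le_mul_left (hle.trans_eq (mul_one _).symm) Nat.card_pos
  have hone : (⟨g, hg, hfix⟩ : fixer K base m) = 1 :=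
    ((Finite.card_le_one_iff_subsingleton).1 h1).elim _ _
  exact congrArg Subtype.val hone

end CfsgLib.Schur.PackedBase
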