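import Cfsg.Agent.Schur.PrimeCert
import Cfsg.Agent.CosetEnum.Upper

/-!
Certificates for the prime parts of Schur multipliers whose elements are given by words in generators, with
equality checked by a given test and the order of the subgroup bounded below by increasing codes.
-/

set_option autoImplicit false

namespace CfsgLib.Schur.PrimeCert

open CfsgLib.CosetEnum

/-- The expansion of a word in listed elements. -/
def flat (els : List (List ℕ)) (w : List ℕ) : List ℕ := w.flatMap fun k => els.getD k []

/-- Strictly increasing. -/
def increasing : List ℕ → Bool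
  | a :: b :: l => Nat.blt a b && increasing (b :: l)
  | _ => true

theorem increasing_pairwise : ∀ {l : List ℕ}, increasing l = true → l.Pairwise (· < ·)
  | [], _ => List.Pairwise.nil
  | [a], _ => List.pairwise_singleton _ _
  | a :: b :: l, h => by
    rw [increasing, Bool.and_eq_true] at h
    have ih := increasing_pairwise h.2
    have hab := Nat.le_of_ble_eq_true h.1
    refine List.pairwise_cons.2 ⟨fun x hx => ?_, ih⟩
    rcases List.mem_cons.1 hx with rfl | hx
    · exact hab
    · exact lt_trans hab ((List.pairwise_cons.1 ih).1 x hx)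

/-- The checks of a certificate against words. -/
def wordsOK (c : Cert) (els nf : List (List ℕ)) (dom : List ℕ → Bool)
    (same : List ℕ → List ℕ → Bool) (code : List ℕ → ℕ) : Bool :=
  ok c && (List.range c.rules.length).all (fun r =>
      same (flat els (c.rules.getD r ([], [])).1) (flat els (c.rules.getD r ([], [])).2)) &&
    nf.all (fun w => w.all (fun k => Nat.blt k c.n) && dom (flat els w)) &&
    Nat.beq nf.length (c.p ^ c.n) && increasing (nf.map fun w => code (flat els w))

theorem gword_flat {G : Type*} [Group G] (v : ℕ → G) (els : List (List ℕ)) (w : List ℕ) :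
    gword v (flat els w) = evalW (fun k => gword v (els.getD k [])) w := by
  induction w with
  | nil => rfl
  | cons k w ih =>
    rw [evalW_cons, ← ih, show flat els (k :: w) = els.getD k [] ++ flat els w from List.flatMap_cons]
    simp [gword]

/-- A prime with a checked certificate on a Sylow subgroup does not divide a stem kernel. -/
theorem not_dvd_of_words {c : Cert} {els nf : List (List ℕ)} {dom : List ℕ → Bool}
    {same : List ℕ → List ℕ → Bool} {code : List ℕ → ℕ} {G : Type*} [Group G] [Finite G] (v : ℕ → G)
    (hsame : ∀ u w, same u w = true → gword v u = gword v w)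
    (hcode : ∀ u w, dom u = true → dom w = true → gword v u = gword v w → code u = code w)
    (hp : c.p.Prime) (h : wordsOK c els nf dom same code = true) {m : ℕ}
    (hcard : Nat.card G = c.p ^ c.n * m) (hm : ¬ c.p ∣ m)
    {Γ : Type*} [Group Γ] [Finite Γ] {σ : Γ →* G} (hσ : Cfsg.IsStemExtension σ) :
    ¬ c.p ∣ Nat.card σ.ker := by
  simp only [wordsOK, Bool.and_eq_true, List.all_eq_true, List.mem_range] at h
  obtain ⟨⟨⟨⟨hok, hrel⟩, hnf⟩, hlen⟩, hinc⟩ := h
  set s : ℕ → G := fun k => gword v (els.getD k []) with hs
  have hr : ∀ r < c.rules.length, evalW s (c.rules.getD r ([], [])).1 =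
      evalW s (c.rules.getD r ([], [])).2 := fun r hr => by
    rw [← gword_flat, ← gword_flat]
    exact hsame _ _ (hrel r hr)
  set H := Subgroup.closure (s '' {i | i < c.n})
  have hle : Nat.card H ≤ c.p ^ c.n := by
    have hok' := hok
    simp only [ok, Bool.and_eq_true, decide_eq_true_eq] at hok'
    rw [show Nat.card H = (H : Set G).ncard from Nat.card_coe_set_eq _]
    exact ncard_closure_le hp.pos hok'.1.2 _ (fun r hr' => hr r (by omega)) c.n le_rfl
  have hnd := (increasing_pairwise hinc).imp (fun {a b} => Nat.ne_of_lt)
  have hge : c.p ^ c.n ≤ Nat.card H := by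
    rw [← Nat.eq_of_beq_eq_true hlen, ← Nat.card_fin nf.length]
    refine Nat.card_le_card_of_injective (fun i => (⟨evalW s nf[i.val],
      list_prod_mem fun y hy => by
        obtain ⟨k, hk, rfl⟩ := List.mem_map.1 hy
        exact Subgroup.subset_closure
          ⟨k, Nat.le_of_ble_eq_true ((hnf _ (List.getElem_mem _)).1 k hk), rfl⟩⟩ : H))
      fun i j hij => ?_
    have e : code (flat els nf[i.val]) = code (flat els nf[j.val]) := by
      refine hcode _ _ (hnf _ (List.getElem_mem _)).2 (hnf _ (List.getElem_mem _)).2 ?_
      rw [gword_flat, gword_flat]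
      exact congrArg Subtype.val hij
    refine Fin.ext ((List.Nodup.getElem_inj_iff (List.nodup_iff_pairwise_ne.2 hnd) (hi := by simp)
      (hj := by simp)).1 ?_)
    rw [List.getElem_map, List.getElem_map, e]
  have hH : Nat.card H = c.p ^ c.n := le_antisymm hle hge
  refine not_dvd_card_ker_of_cert hσ hp hok _ hr hH ?_
  have hi := H.card_mul_index
  rw [hH, hcard] at hi
  rwa [Nat.eq_of_mul_eq_mul_left (pow_pos hp.pos _) hi]

end CfsgLib.Schur.PrimeCert
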