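import Cfsg.Agent.Schur.MonomialCert

/-!
Chosen elements given by short words in auxiliary elements, which are given by words in the letters.
-/

set_option autoImplicit false

namespace CfsgLib.Schur.MonomialMacro

open CfsgLib.Schur.Monomial (Tables evalN vN aN)
open CfsgLib.Schur.MonomialCert (entry runE eltsOK)

variable (T : Tables)

/-- The words in the letters. -/
def expand (mw : List (List ℕ)) (ew : List (List ℕ)) : List (List ℕ) :=
  ew.map fun w => w.flatMap fun k => mw.getD k []

/-- The chosen elements are the values of the words in the auxiliary ones. -/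
def macroOK (mw : List (List ℕ)) (mfwd : List ℕ) (ew : List (List ℕ)) (efwd : List ℕ) : Bool :=
  decide (0 < T.m) && ew.all (fun w => w.all fun k => decide (k < mw.length)) &&
    (List.range ew.length).all fun k => (List.range T.n).all fun i =>
      runE T mfwd (ew.getD k []) i == entry T efwd k i

/-- Monomial.check bounds the images. -/
theorem evalN_fst_lt (h : Monomial.check T = true) :
    ∀ (w : List ℕ), (∀ x ∈ w, x < T.L) → ∀ i < T.n, (evalN T w i).1 < T.n := by
  intro w
  induction w with
  | nil => exact fun _ i hi => hi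
  | cons x w ih =>
    intro hw i hi
    exact (Monomial.check_letter h (hw x List.mem_cons_self)
      ⟨_, ih (fun y hy => hw y (List.mem_cons_of_mem _ hy)) i hi⟩).1

theorem evalN_snd_lt (hm : 0 < T.m) : ∀ (w : List ℕ) (i : ℕ), (evalN T w i).2 < T.m
  | [], _ => hm
  | _ :: _, _ => Nat.mod_lt _ hm

theorem evalN_concat (hm : 0 < T.m) (w : List ℕ) (i : ℕ) : ∀ u : List ℕ,
    evalN T (u ++ w) i = ((evalN T u (evalN T w i).1).1,
      ((evalN T w i).2 + (evalN T u (evalN T w i).1).2) % T.m)
  | [] => by
    show evalN T w i = _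
    refine Prod.ext rfl ?_
    show _ = ((evalN T w i).2 + 0) % T.m
    rw [Nat.add_zero, Nat.mod_eq_of_lt (evalN_snd_lt T hm w i)]
  | x :: u => by
    show (aN T x (evalN T (u ++ w) i).1,
      ((evalN T (u ++ w) i).2 + vN T x (evalN T (u ++ w) i).1) % T.m) = _
    rw [evalN_concat hm w i u]
    refine Prod.ext rfl ?_
    show (((evalN T w i).2 + (evalN T u (evalN T w i).1).2) % T.m +
      vN T x (evalN T u (evalN T w i).1).1) % T.m = ((evalN T w i).2 +
        ((evalN T u (evalN T w i).1).2 + vN T x (evalN T u (evalN T w i).1).1) % T.m) % T.m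
    rw [Nat.mod_add_mod, Nat.add_mod_mod, Nat.add_assoc]

/-- The two checks give the words in the letters. -/
theorem eltsOK_expand (h : Monomial.check T = true) (mw : List (List ℕ)) (mfwd : List ℕ)
    (ew : List (List ℕ)) (efwd : List ℕ) (hm : eltsOK T mw mfwd = true)
    (he : macroOK T mw mfwd ew efwd = true) : eltsOK T (expand mw ew) efwd = true := by
  simp only [macroOK, Bool.and_eq_true, decide_eq_true_eq, List.all_eq_true, List.mem_range,
    beq_iff_eq] at he
  obtain ⟨⟨hpos, hlt⟩, hev⟩ := he
  simp only [eltsOK, Bool.and_eq_true, decide_eq_true_eq, List.all_eq_true, List.mem_range,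
    beq_iff_eq] at hm
  obtain ⟨hml, hmev⟩ := hm
  have hlet : ∀ w ∈ ew, ∀ x ∈ w.flatMap (fun k => mw.getD k []), x < T.L := by
    intro w hw x hx
    obtain ⟨k, hk, hxk⟩ := List.mem_flatMap.1 hx
    rw [List.getD_eq_getElem _ _ (hlt w hw k hk)] at hxk
    exact hml _ (List.getElem_mem _) x hxk
  have hrun : ∀ w : List ℕ, (∀ k ∈ w, k < mw.length) → ∀ i < T.n,
      evalN T (w.flatMap fun k => mw.getD k []) i = runE T mfwd w i := by
    intro w
    induction w with
    | nil => intro _ i _; rfl
    | cons k w ih =>
      intro hw i hi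
      have hw' : ∀ y ∈ w, y < mw.length := fun y hy => hw y (List.mem_cons_of_mem _ hy)
      have hk := hw k List.mem_cons_self
      have hfl : ∀ x ∈ w.flatMap (fun k => mw.getD k []), x < T.L := by
        intro x hx
        obtain ⟨y, hy, hxy⟩ := List.mem_flatMap.1 hx
        rw [List.getD_eq_getElem _ _ (hw' y hy)] at hxy
        exact hml _ (List.getElem_mem _) x hxy
      rw [List.flatMap_cons, evalN_concat T hpos, ih hw' i hi, runE]
      have hlt' : (runE T mfwd w i).1 < T.n := ih hw' i hi ▸ evalN_fst_lt T h _ hfl i hi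
      rw [hmev k hk _ hlt']
  simp only [eltsOK, expand, Bool.and_eq_true, decide_eq_true_eq, List.all_eq_true, List.mem_range,
    beq_iff_eq, List.length_map]
  refine ⟨fun w hw x hx => ?_, fun k hk i hi => ?_⟩
  · obtain ⟨w', hw', rfl⟩ := List.mem_map.1 hw
    exact hlet w' hw' x hx
  · rw [List.getD_eq_getElem _ _ (by rwa [List.length_map]), List.getElem_map]
    have := hev k hk i hi
    rw [List.getD_eq_getElem _ _ hk] at this
    rw [hrun _ (hlt _ (List.getElem_mem _)) i hi, this]

end CfsgLib.Schur.MonomialMacro
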