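import Mathlib

set_option autoImplicit false

/-! # Invariant multilinear maps are trivial

A bi- or tri-additive map whose diagonal is constant on the nonzero vectors vanishes, once the
group is large enough. -/

namespace CfsgLib.Schur

variable {V M : Type*} [AddCommGroup V] [AddCommGroup M]

theorem eq_zero_of_diag_const₂ (T : V →+ V →+ M) (c : M) (hc : ∀ u, u ≠ 0 → T u u = c) {x y w : V}
    (hx : x ≠ 0) (hy : y ≠ 0) (hxy : x + y ≠ 0) (hw : w ≠ 0) (hwx : w + x ≠ 0) (hwy : w + y ≠ 0)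
    (hwxy : w + x + y ≠ 0) : c = 0 := by
  have key : ∀ u, T (u + x + y) (u + x + y) - T (u + x) (u + x) - T (u + y) (u + y) + T u u =
      T x y + T y x := by
    intro u
    simp only [map_add, AddMonoidHom.add_apply]
    abel
  have h0 := key 0
  have h1 := key w
  rw [hc _ hwxy, hc _ hwx, hc _ hwy, hc _ hw] at h1
  simp only [zero_add] at h0
  rw [hc _ hxy, hc _ hx, hc _ hy] at h0
  simp only [map_zero, AddMonoidHom.zero_apply] at h0
  rw [← h1] at h0
  have := h0
  abel_nf at this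
  simpa using this

theorem eq_zero_of_diag_const₃ (T : V →+ V →+ V →+ M) (c : M) (hc : ∀ u, u ≠ 0 → T u u u = c)
    {x y z w : V} (h : ∀ u ∈ ({x, y, z, x + y, x + z, y + z, x + y + z} : Set V),
      u ≠ 0 ∧ w + u ≠ 0) (hw : w ≠ 0) : c = 0 := by
  have key : ∀ u, T (u + x + y + z) (u + x + y + z) (u + x + y + z) - T (u + x + y) (u + x + y) (u + x + y)
      - T (u + x + z) (u + x + z) (u + x + z) - T (u + y + z) (u + y + z) (u + y + z)
      + T (u + x) (u + x) (u + x) + T (u + y) (u + y) (u + y) + T (u + z) (u + z) (u + z) - T u u u =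
      T x y z + T x z y + T y x z + T y z x + T z x y + T z y x := by
    intro u
    simp only [map_add, AddMonoidHom.add_apply]
    abel
  obtain ⟨a1, b1⟩ := h x (by simp)
  obtain ⟨a2, b2⟩ := h y (by simp)
  obtain ⟨a3, b3⟩ := h z (by simp)
  obtain ⟨a4, b4⟩ := h (x + y) (by simp)
  obtain ⟨a5, b5⟩ := h (x + z) (by simp)
  obtain ⟨a6, b6⟩ := h (y + z) (by simp)
  obtain ⟨a7, b7⟩ := h (x + y + z) (by simp)
  have h0 := key 0
  have h1 := key w
  simp only [add_assoc] at b4 b5 b6 b7 a7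
  simp only [add_assoc] at h1
  rw [hc _ b7, hc _ b4, hc _ b5, hc _ b6, hc _ b1, hc _ b2, hc _ b3, hc _ hw] at h1
  simp only [zero_add, add_assoc] at h0
  rw [hc _ a7, hc _ a4, hc _ a5, hc _ a6, hc _ a1, hc _ a2, hc _ a3] at h0
  simp only [map_zero, AddMonoidHom.zero_apply] at h0
  simp only [← add_assoc] at h0 h1
  rw [← h1] at h0
  have := h0
  abel_nf at this
  simpa using this

/-- A group with at least `4` elements has two vectors and an offset as needed. -/
theorem exists_offsets₂ [Fintype V] (h : 5 ≤ Fintype.card V) :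
    ∃ x y w : V, x ≠ 0 ∧ y ≠ 0 ∧ x + y ≠ 0 ∧ w ≠ 0 ∧ w + x ≠ 0 ∧ w + y ≠ 0 ∧ w + x + y ≠ 0 := by
  classical
  have avoid : ∀ S : Finset V, S.card < Fintype.card V → ∃ a, a ∉ S := fun S hS => by
    obtain ⟨a, -, ha⟩ := Finset.exists_mem_notMem_of_card_lt_card
      (show S.card < (Finset.univ : Finset V).card by rwa [Finset.card_univ])
    exact ⟨a, ha⟩
  obtain ⟨x, hx⟩ := avoid {0} (by simp; omega)
  obtain ⟨y, hy⟩ := avoid {0, -x} (lt_of_le_of_lt Finset.card_le_two (by omega))
  obtain ⟨w, hw⟩ := avoid {0, -x, -y, -(x + y)} (lt_of_le_of_lt Finset.card_le_four (by omega))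
  simp only [Finset.mem_insert, Finset.mem_singleton, not_or] at hx hy hw
  refine ⟨x, y, w, hx, hy.1, fun e => hy.2 ?_, hw.1, fun e => hw.2.1 ?_, fun e => hw.2.2.1 ?_,
    fun e => hw.2.2.2 ?_⟩
  · exact eq_neg_of_add_eq_zero_right e
  · exact eq_neg_of_add_eq_zero_left e
  · exact eq_neg_of_add_eq_zero_left e
  · rw [add_assoc] at e; exact eq_neg_of_add_eq_zero_left e

theorem exists_offsets₃ [Fintype V] (h : 9 ≤ Fintype.card V) :
    ∃ x y z w : V, (∀ u ∈ ({x, y, z, x + y, x + z, y + z, x + y + z} : Set V), u ≠ 0 ∧ w + u ≠ 0) ∧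
      w ≠ 0 := by
  classical
  have avoid : ∀ S : Finset V, S.card < Fintype.card V → ∃ a, a ∉ S := fun S hS => by
    obtain ⟨a, -, ha⟩ := Finset.exists_mem_notMem_of_card_lt_card
      (show S.card < (Finset.univ : Finset V).card by rwa [Finset.card_univ])
    exact ⟨a, ha⟩
  obtain ⟨x, hx⟩ := avoid {0} (by simp; omega)
  obtain ⟨y, hy⟩ := avoid {0, -x} (lt_of_le_of_lt Finset.card_le_two (by omega))
  obtain ⟨z, hz⟩ := avoid {0, -x, -y, -(x + y)} (lt_of_le_of_lt Finset.card_le_four (by omega))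
  let L : List V := [0, -x, -y, -z, -(x + y), -(x + z), -(y + z), -(x + y + z)]
  obtain ⟨w, hw⟩ := avoid L.toFinset (lt_of_le_of_lt (List.toFinset_card_le _) (by
    rw [show L.length = 8 from rfl]; omega))
  simp only [Finset.mem_insert, Finset.mem_singleton, not_or] at hx hy hz
  simp only [L, List.mem_toFinset, List.mem_cons, List.not_mem_nil, or_false, not_or] at hw
  obtain ⟨w0, w1, w2, w3, w4, w5, w6, w7⟩ := hw
  refine ⟨x, y, z, w, ?_, w0⟩
  intro u hu
  simp only [Set.mem_insert_iff, Set.mem_singleton_iff] at hu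
  have ne0 : u ≠ 0 := by
    rcases hu with rfl | rfl | rfl | rfl | rfl | rfl | rfl
    · exact hx
    · exact hy.1
    · exact hz.1
    · exact fun e => hy.2 (eq_neg_of_add_eq_zero_right e)
    · exact fun e => hz.2.1 (eq_neg_of_add_eq_zero_right e)
    · exact fun e => hz.2.2.1 (eq_neg_of_add_eq_zero_right e)
    · exact fun e => hz.2.2.2 (eq_neg_of_add_eq_zero_right e)
  refine ⟨ne0, ?_⟩
  rcases hu with rfl | rfl | rfl | rfl | rfl | rfl | rfl
  all_goals intro e
  · exact w1 (eq_neg_of_add_eq_zero_left e)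
  · exact w2 (eq_neg_of_add_eq_zero_left e)
  · exact w3 (eq_neg_of_add_eq_zero_left e)
  · exact w4 (eq_neg_of_add_eq_zero_left e)
  · exact w5 (eq_neg_of_add_eq_zero_left e)
  · exact w6 (eq_neg_of_add_eq_zero_left e)
  · exact w7 (eq_neg_of_add_eq_zero_left e)

end CfsgLib.Schur
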