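import Cfsg.Agent.Schur.Polarisation
import Cfsg.Agent.Schur.CentralCommutator
import Cfsg.Agent.Suzuki.TISubgroups

set_option autoImplicit false

/-! # Commutators of lifted translations in central extensions of the Suzuki groups -/

namespace CfsgLib.Schur

open Subgroup CfsgLib.Suzuki
open scoped commutatorElement

universe u v

variable {Γ : Type u} [Group Γ] {F : Type v} [Field F] {θ : F →+* F} [CharP F 2] [Fintype F]

/-- In a central extension, lifts of central translations commute. -/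
theorem commutator_central_lifts (hT : TitsEndo θ) (hq : 5 ≤ Fintype.card F) {σ : Γ →* grp θ}
    (hs : Function.Surjective σ) (hc : σ.ker ≤ center Γ) {b b' : F} {x y : Γ}
    (hx : σ x = uElt hT 0 b) (hy : σ y = uElt hT 0 b') : ⁅x, y⁆ = 1 := by
  obtain ⟨s, hs⟩ := hs.hasRightInverse
  have hk : ∀ k ∈ σ.ker, ∀ g, g * k = k * g := fun k hk g => mem_center_iff.1 (hc hk) g
  letI : CommGroup σ.ker := { (inferInstance : Group σ.ker) with
    mul_comm := fun a b => Subtype.ext (hk _ b.2 a) }
  let Z : F → grp θ := fun b => uElt hT 0 b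
  have hZadd : ∀ b b', Z (b + b') = Z b * Z b' := fun b b' => by
    show uElt hT 0 (b + b') = uElt hT 0 b * uElt hT 0 b'
    rw [uElt_mul]; congr 1 <;> simp
  have hmemK : ∀ c c', ⁅s (Z c), s (Z c')⁆ ∈ σ.ker := fun c c' => by
    rw [MonoidHom.mem_ker, map_commutatorElement, hs, hs]
    exact commutatorElement_eq_one_iff_mul_comm.2 (by rw [← hZadd, ← hZadd, add_comm])
  let B : F → F → Additive σ.ker := fun c c' => Additive.ofMul ⟨_, hmemK c c'⟩
  have addL : ∀ x x' y, B (x + x') y = B x y + B x' y := by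
    intro x x' y
    apply Additive.toMul.injective
    apply Subtype.ext
    show ⁅s (Z (x + x')), s (Z y)⁆ = ⁅s (Z x), s (Z y)⁆ * ⁅s (Z x'), s (Z y)⁆
    rw [commutator_congr hc (g' := s (Z x) * s (Z x')) (by rw [map_mul, hs, hs, hs, hZadd]) rfl,
      commutator_mul_left' (hk _ (hmemK x' y) _), hk _ (hmemK x y) _]
  have addR : ∀ x y y', B x (y + y') = B x y + B x y' := by
    intro x y y'
    apply Additive.toMul.injective
    apply Subtype.ext
    show ⁅s (Z x), s (Z (y + y'))⁆ = ⁅s (Z x), s (Z y)⁆ * ⁅s (Z x), s (Z y')⁆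
    rw [commutator_congr hc (h' := s (Z y) * s (Z y')) rfl (by rw [map_mul, hs, hs, hs, hZadd]),
      commutator_mul_right' (hk _ (hmemK x y') _)]
  let T : F →+ F →+ Additive σ.ker := AddMonoidHom.mk'
    (fun v => AddMonoidHom.mk' (fun w => B (v * b) (w * b')) fun w w' => by simp only [add_mul, addR])
    fun v v' => by ext w; simp only [AddMonoidHom.mk'_apply, AddMonoidHom.add_apply, add_mul, addL]
  have hdiag : ∀ u, u ≠ 0 → T u u = B b b' := by
    intro u hu
    obtain ⟨t, ht⟩ := exists_multiplier hT hu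
    have e : ∀ z, σ (s (tElt hT t) * s (Z z) * (s (tElt hT t))⁻¹) = σ (s (Z (u * z))) := fun z => by
      rw [map_mul, map_mul, map_inv, hs, hs, hs, ← ht]; exact tElt_conj_central hT t z
    apply Additive.toMul.injective
    apply Subtype.ext
    show ⁅s (Z (u * b)), s (Z (u * b'))⁆ = ⁅s (Z b), s (Z b')⁆
    rw [← commutator_congr hc (e b) (e b'),
      show ⁅s (tElt hT t) * s (Z b) * (s (tElt hT t))⁻¹, s (tElt hT t) * s (Z b') * (s (tElt hT t))⁻¹⁆
        = s (tElt hT t) * ⁅s (Z b), s (Z b')⁆ * (s (tElt hT t))⁻¹ by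
        simp only [commutatorElement_def]; group,
      hk _ (hmemK b b'), mul_inv_cancel_right]
  obtain ⟨x₁, y₁, w, h0, h1, hxy, hw, h2, h3, h4⟩ := exists_offsets₂ (V := F) hq
  have := eq_zero_of_diag_const₂ T _ hdiag h0 h1 hxy hw h2 h3 h4
  rw [commutator_congr hc (g' := s (Z b)) (h' := s (Z b')) (by rw [hx, hs]) (by rw [hy, hs])]
  exact congrArg (fun k : Additive σ.ker => ((Additive.toMul k : σ.ker) : Γ)) this

/-- The pairing of translations with central translations. -/
theorem exists_transPairing (hT : TitsEndo θ) (hq : 5 ≤ Fintype.card F) {σ : Γ →* grp θ}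
    (hs : Function.Surjective σ) (hc : σ.ker ≤ center Γ) :
    ∃ C : F → F → Γ, (∀ a b, C a b ∈ σ.ker) ∧
      (∀ a b x y, σ x = uElt hT a 0 → σ y = uElt hT 0 b → ⁅x, y⁆ = C a b) ∧
      (∀ a a' b, C (a + a') b = C a b * C a' b) ∧ (∀ a b b', C a (b + b') = C a b * C a b') ∧
      ∀ (t : Fˣ) a b, C (θ t * a) ((t : F) ^ 2 * θ t * b) = C a b := by
  obtain ⟨s, hs'⟩ := hs.hasRightInverse
  have hk : ∀ k ∈ σ.ker, ∀ g, g * k = k * g := fun k hk g => mem_center_iff.1 (hc hk) g
  have hB : ∀ b b', ⁅s (uElt hT 0 b), s (uElt hT 0 b')⁆ = 1 := fun b b' =>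
    commutator_central_lifts hT hq hs hc (hs' _) (hs' _)
  have hmem : ∀ a b, ⁅s (uElt hT a 0), s (uElt hT 0 b)⁆ ∈ σ.ker := fun a b => by
    rw [MonoidHom.mem_ker, map_commutatorElement, hs', hs']
    refine commutatorElement_eq_one_iff_mul_comm.2 ?_
    rw [uElt_mul, uElt_mul]; congr 1 <;> simp
  refine ⟨fun a b => ⁅s (uElt hT a 0), s (uElt hT 0 b)⁆, hmem, fun a b x y hx hy =>
    commutator_congr hc (by rw [hx, hs']) (by rw [hy, hs']), fun a a' b => ?_, fun a b b' => ?_,
    fun t a b => ?_⟩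
  · dsimp only
    rw [commutator_congr hc
        (g' := s (uElt hT a 0) * s (uElt hT a' 0) * s (uElt hT 0 (θ a * a'))) (by
          rw [map_mul, map_mul, hs', hs', hs', hs', uElt_mul, uElt_mul]
          simp [CharTwo.add_self_eq_zero]) rfl,
      commutator_mul_left' (by rw [hB]; simp), hB, one_mul,
      commutator_mul_left' (hk _ (hmem a' b) _), hk _ (hmem a b) _]
  · dsimp only
    rw [commutator_congr hc (h' := s (uElt hT 0 b) * s (uElt hT 0 b')) rfl (by
        rw [map_mul, hs', hs', hs', uElt_mul]; simp),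
      commutator_mul_right' (hk _ (hmem a b') _)]
  · show ⁅s _, s _⁆ = ⁅s _, s _⁆
    rw [commutator_congr hc
        (g' := s (tElt hT t) * s (uElt hT a 0) * (s (tElt hT t))⁻¹)
        (h' := s (tElt hT t) * s (uElt hT 0 b) * (s (tElt hT t))⁻¹)
        (by rw [hs', map_mul, map_mul, map_inv, hs', hs', tElt_conj_uElt, mul_zero])
        (by rw [hs', map_mul, map_mul, map_inv, hs', hs', tElt_conj_central]),
      show ⁅s (tElt hT t) * s (uElt hT a 0) * (s (tElt hT t))⁻¹,
          s (tElt hT t) * s (uElt hT 0 b) * (s (tElt hT t))⁻¹⁆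
        = s (tElt hT t) * ⁅s (uElt hT a 0), s (uElt hT 0 b)⁆ * (s (tElt hT t))⁻¹ by
        simp only [commutatorElement_def]; group,
      hk _ (hmem a b), mul_inv_cancel_right]

end CfsgLib.Schur
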