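import Cfsg.Agent.Schur.StemSylow
import Cfsg.Agent.Schur.Polarisation
import Cfsg.Agent.Schur.SuzukiCommutator
import Cfsg.Agent.Schur.CentralCommutator
import Cfsg.Agent.SuzukiAut.OddSylow
import Cfsg.Agent.Suzuki.TISubgroups
import Cfsg.Agent.Suzuki.LieModel

set_option autoImplicit false

/-! # The Schur multiplier of the Suzuki groups over fields with more than eight elements -/

namespace CfsgLib.Schur

open Subgroup CfsgLib.Suzuki
open scoped commutatorElement

universe u v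

section Suzuki

variable {Γ : Type u} [Group Γ] {F : Type v} [Field F] {θ : F →+* F} [CharP F 2] [Fintype F]

/-- The central translations as a homomorphism. -/
def zHom (hT : TitsEndo θ) : Multiplicative F →* grp θ :=
  MonoidHom.mk' (fun b => uElt hT 0 b.toAdd) fun a b => by
    rw [uElt_mul, map_zero, zero_mul, add_zero, add_zero]; rfl

theorem zHom_injective (hT : TitsEndo θ) : Function.Injective (zHom hT) := fun _ _ h =>
  Multiplicative.toAdd.injective ((uElt_inj hT).1 h).2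

theorem sum_mult [DecidableEq F] (hT : TitsEndo θ) : ∑ t : Fˣ, (t : F) ^ 2 * θ t = 0 := by
  obtain ⟨t0, -, ht0⟩ := exists_scale hT
  have h : ((t0 : F) ^ 2 * θ t0) * ∑ t : Fˣ, (t : F) ^ 2 * θ t = ∑ t : Fˣ, (t : F) ^ 2 * θ t := by
    rw [Finset.mul_sum]
    refine Fintype.sum_equiv (Equiv.mulLeft t0) _ _ fun t => ?_
    simp only [Equiv.coe_mulLeft, Units.val_mul, map_mul]; ring
  have h' : ((t0 : F) ^ 2 * θ t0 - 1) * ∑ t : Fˣ, (t : F) ^ 2 * θ t = 0 := by linear_combination h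
  exact (mul_eq_zero.1 h').resolve_left ht0

/-- No element of order two lies in the kernel of a stem extension, once lifts of translations
commute with lifts of central translations. -/
theorem suzuki_not_two_dvd_ker_of_commute [Finite Γ] (hT : TitsEndo θ) (hq : 5 ≤ Fintype.card F)
    {σ : Γ →* grp θ} (hσ : Cfsg.IsStemExtension σ)
    (hC' : ∀ a b x y, σ x = uElt hT a 0 → σ y = uElt hT 0 b → ⁅x, y⁆ = 1) :
    ¬ 2 ∣ Nat.card σ.ker := by
  classical
  haveI : Fact (Nat.Prime 2) := ⟨Nat.prime_two⟩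
  have hk : ∀ k ∈ σ.ker, ∀ g, g * k = k * g := fun k hk g => mem_center_iff.1 (hσ.2.1 hk) g
  obtain ⟨s, hs⟩ : ∃ s : grp θ → Γ, ∀ g, σ (s g) = g :=
    ⟨fun g => Classical.choose (hσ.1 g), fun g => Classical.choose_spec (hσ.1 g)⟩
  letI : CommGroup σ.ker := { (inferInstance : Group σ.ker) with
    mul_comm := fun a b => Subtype.ext (hk _ b.2 a) }
  let Z : F → grp θ := fun b => uElt hT 0 b
  let A : F → grp θ := fun a => uElt hT a 0
  have hZadd : ∀ b b', Z (b + b') = Z b * Z b' := fun b b' => by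
    show uElt hT 0 (b + b') = uElt hT 0 b * uElt hT 0 b'
    rw [uElt_mul]; congr 1 <;> simp
  have hB : ∀ b b', ⁅s (Z b), s (Z b')⁆ = 1 := fun b b' =>
    commutator_central_lifts hT hq hσ.1 hσ.2.1 (hs _) (hs _)
  have hAdd : ∀ a a', A a * A a' * Z (θ a * a') = A (a + a') := fun a a' => by
    show uElt hT a 0 * uElt hT a' 0 * uElt hT 0 (θ a * a') = uElt hT (a + a') 0
    rw [uElt_mul, uElt_mul]
    simp [CharTwo.add_self_eq_zero]
  have hC : ∀ a b, ⁅s (A a), s (Z b)⁆ = 1 := fun a b => hC' a b _ _ (hs _) (hs _)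
  -- the lift R₀ of the central translations is central in the lift R of the translations
  let R : Subgroup Γ := (uGrp hT).comap σ
  let R₀ : Subgroup Γ := (zHom hT).range.comap σ
  have hform : ∀ r ∈ R, ∃ a b, ∃ k ∈ σ.ker, r = s (A a) * s (Z b) * k := by
    intro r hr
    obtain ⟨a, b, hab⟩ := mem_comap.1 hr
    refine ⟨a, b, (s (A a) * s (Z b))⁻¹ * r, ?_, by group⟩
    rw [MonoidHom.mem_ker, map_mul, map_inv, map_mul, hs, hs, hab, inv_mul_eq_one]
    show uElt hT a 0 * uElt hT 0 b = uElt hT a b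
    rw [uElt_mul]; congr 1 <;> simp
  have hR₀form : ∀ r ∈ R₀, ∃ b, ∃ k ∈ σ.ker, r = s (Z b) * k := by
    intro r hr
    obtain ⟨b, hb⟩ := mem_comap.1 hr
    refine ⟨b.toAdd, (s (Z b.toAdd))⁻¹ * r, ?_, by group⟩
    rw [MonoidHom.mem_ker, map_mul, map_inv, hs, ← hb, inv_mul_eq_one]
    rfl
  have hR₀R : R₀ ≤ R := fun r hr => by
    obtain ⟨b, hb⟩ := mem_comap.1 hr
    exact mem_comap.2 (hb ▸ uElt_mem hT 0 b.toAdd)
  have hcent : ∀ r ∈ R, ∀ z ∈ R₀, r * z = z * r := by
    intro r hr z hz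
    obtain ⟨a, b, k, hk1, rfl⟩ := hform r hr
    obtain ⟨b', k', hk2, rfl⟩ := hR₀form z hz
    have c1 : Commute (s (A a)) (s (Z b')) := commutatorElement_eq_one_iff_mul_comm.1 (hC a b')
    have c2 : Commute (s (Z b)) (s (Z b')) := commutatorElement_eq_one_iff_mul_comm.1 (hB b b')
    have c3 : Commute k (s (Z b')) := (hk k hk1 _).symm
    have c4 : Commute (s (A a) * s (Z b) * k) k' := hk k' hk2 _
    exact (((c1.mul_left c2).mul_left c3).mul_right c4).eq
  letI : CommGroup R₀ := { (inferInstance : Group R₀) with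
    mul_comm := fun a b => Subtype.ext (hcent _ (hR₀R a.2) _ b.2) }
  -- the averaging map
  have hnorm : ∀ (t : Fˣ) (x : R₀), s (tElt hT t) * x * (s (tElt hT t))⁻¹ ∈ R₀ := by
    intro t x
    obtain ⟨b, hb⟩ := mem_comap.1 x.2
    refine mem_comap.2 ⟨Multiplicative.ofAdd ((t : F) ^ 2 * θ t * b.toAdd), ?_⟩
    rw [map_mul σ, map_mul σ, map_inv σ, hs, ← hb]
    exact (tElt_conj_central hT t b.toAdd).symm
  let c : Fˣ → (R₀ →* R₀) := fun t =>
    MonoidHom.mk' (fun x => ⟨_, hnorm t x⟩) fun x y => Subtype.ext (by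
      simp only [Subgroup.coe_mul]; group)
  let ψ : R₀ →* R₀ := ∏ t, c t
  have hψinv : ∀ t₀ x, ψ (c t₀ x) = ψ x := by
    intro t₀ x
    simp only [ψ, MonoidHom.finsetProd_apply]
    refine Fintype.prod_equiv (Equiv.mulRight t₀) _ _ fun t => Subtype.ext ?_
    simp only [c, MonoidHom.mk'_apply, Equiv.coe_mulRight]
    obtain ⟨k, hk1, hk2⟩ : ∃ k ∈ σ.ker, s (tElt hT t) * s (tElt hT t₀) = s (tElt hT (t * t₀)) * k :=
      ⟨(s (tElt hT (t * t₀)))⁻¹ * (s (tElt hT t) * s (tElt hT t₀)), by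
        rw [MonoidHom.mem_ker, map_mul, map_inv, map_mul, hs, hs, hs, tElt_mul, inv_mul_cancel],
        by group⟩
    calc s (tElt hT t) * (s (tElt hT t₀) * x * (s (tElt hT t₀))⁻¹) * (s (tElt hT t))⁻¹
        = (s (tElt hT t) * s (tElt hT t₀)) * x * (s (tElt hT t) * s (tElt hT t₀))⁻¹ := by group
      _ = s (tElt hT (t * t₀)) * (k * (x : Γ)) * k⁻¹ * (s (tElt hT (t * t₀)))⁻¹ := by rw [hk2]; group
      _ = _ := by rw [← hk k hk1 (x : Γ)]; group
  let e := MonoidHom.ofInjective (zHom_injective hT)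
  let pr : R₀ →* Multiplicative F := e.symm.toMonoidHom.comp (σ.subgroupComap (zHom hT).range)
  have hpr : ∀ x : R₀, σ (x : Γ) = zHom hT (pr x) := fun x => by
    have := congrArg Subtype.val (e.apply_symm_apply (σ.subgroupComap (zHom hT).range x))
    exact this.symm
  have hψK : ∀ x : R₀, (ψ x : Γ) ∈ σ.ker := by
    intro x
    rw [MonoidHom.mem_ker, hpr, ← map_one (zHom hT)]
    refine congrArg _ ?_
    simp only [ψ, MonoidHom.finsetProd_apply, map_prod]
    have h : ∀ t, pr (c t x) = Multiplicative.ofAdd ((t : F) ^ 2 * θ t * (pr x).toAdd) := fun t => by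
      apply zHom_injective hT
      rw [← hpr]
      show σ (s (tElt hT t) * (x : Γ) * (s (tElt hT t))⁻¹) = _
      rw [map_mul, map_mul, map_inv, hs, hpr]
      exact tElt_conj_central hT t _
    rw [Finset.prod_congr rfl fun t _ => h t, ← ofAdd_sum, ← Finset.sum_mul, sum_mult hT, zero_mul,
      ofAdd_zero]
  have hψker : ∀ k : R₀, (k : Γ) ∈ σ.ker → ψ k = k ^ Fintype.card Fˣ := by
    intro k hk1
    simp only [ψ, MonoidHom.finsetProd_apply]
    rw [Finset.prod_congr rfl (fun t _ => show c t k = k from Subtype.ext (by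
      show s (tElt hT t) * (k : Γ) * (s (tElt hT t))⁻¹ = k
      rw [hk _ hk1, mul_inv_cancel_right])), Finset.prod_const, Finset.card_univ]
  -- commutators of lifted translations
  have hDmem : ∀ a a', ⁅s (A a), s (A a')⁆ ∈ R₀ := by
    intro a a'
    refine mem_comap.2 ⟨Multiplicative.ofAdd (θ a * a' - θ a' * a), ?_⟩
    rw [map_commutatorElement, hs, hs]
    exact (congrArg Subtype.val (uU_commutator hT a 0 a' 0)).symm
  let D : F → F → R₀ := fun a a' => ⟨_, hDmem a a'⟩
  have hAR : ∀ a, s (A a) ∈ R := fun a => by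
    rw [mem_comap, hs]; exact uElt_mem hT a 0
  have hZR : ∀ b, s (Z b) ∈ R₀ := fun b => mem_comap.2 ⟨Multiplicative.ofAdd b, (hs _).symm⟩
  have comm_one : ∀ r ∈ R, ∀ z ∈ R₀, ⁅z, r⁆ = 1 ∧ ⁅r, z⁆ = 1 := fun r hr z hz =>
    ⟨commutatorElement_eq_one_iff_mul_comm.2 (hcent r hr z hz).symm,
      commutatorElement_eq_one_iff_mul_comm.2 (hcent r hr z hz)⟩
  have hDaddL : ∀ x x' y, D (x + x') y = D x y * D x' y := by
    intro x x' y
    apply Subtype.ext
    show ⁅s (A (x + x')), s (A y)⁆ = ⁅s (A x), s (A y)⁆ * ⁅s (A x'), s (A y)⁆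
    rw [commutator_congr hσ.2.1 (g' := s (A x) * s (A x') * s (Z (θ x * x')))
        (by rw [map_mul, map_mul, hs, hs, hs, hs, hAdd]) rfl,
      commutator_mul_left' (by rw [(comm_one _ (hAR y) _ (hZR _)).1]; simp),
      (comm_one _ (hAR y) _ (hZR _)).1, one_mul,
      commutator_mul_left' (hcent _ (hAR x) _ (hDmem x' y)),
      hcent _ (hR₀R (hDmem x' y)) _ (hDmem x y)]
  have hDaddR : ∀ x y y', D x (y + y') = D x y * D x y' := by
    intro x y y'
    apply Subtype.ext
    show ⁅s (A x), s (A (y + y'))⁆ = ⁅s (A x), s (A y)⁆ * ⁅s (A x), s (A y')⁆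
    rw [commutator_congr hσ.2.1 (h' := s (A y) * s (A y') * s (Z (θ y * y'))) rfl
        (by rw [map_mul, map_mul, hs, hs, hs, hs, hAdd]),
      commutator_mul_right' (by rw [(comm_one _ (hAR x) _ (hZR _)).2]; simp),
      (comm_one _ (hAR x) _ (hZR _)).2, mul_one,
      commutator_mul_right' (hcent _ (hAR y) _ (hDmem x y'))]
  have hψD : ∀ a a', ψ (D a a') = 1 := by
    intro a a'
    let T : F →+ F →+ Additive R₀ := AddMonoidHom.mk'
      (fun v => AddMonoidHom.mk' (fun w => Additive.ofMul (ψ (D (v * a) (w * a'))))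
        fun w w' => by simp only [add_mul, hDaddR, map_mul, ofMul_mul])
      fun v v' => by
        ext w; simp only [AddMonoidHom.mk'_apply, AddMonoidHom.add_apply, add_mul, hDaddL, map_mul, ofMul_mul]
    have hdiag : ∀ u, u ≠ 0 → T u u = Additive.ofMul (ψ (D a a')) := by
      intro u hu
      obtain ⟨x, hx⟩ := hT.surj u
      have hx0 : x ≠ 0 := fun h => hu (by rw [← hx, h, map_zero])
      show Additive.ofMul (ψ (D (u * a) (u * a'))) = _
      rw [← hψinv (Units.mk0 x hx0) (D a a')]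
      refine congrArg _ (congrArg _ (Subtype.ext ?_))
      have e : ∀ z, σ (s (tElt hT (Units.mk0 x hx0)) * s (A z) * (s (tElt hT (Units.mk0 x hx0)))⁻¹)
          = σ (s (A (u * z))) := fun z => by
        rw [map_mul, map_mul, map_inv, hs, hs, hs]
        refine (tElt_conj_uElt hT _ _ _).trans ?_
        rw [Units.val_mk0, hx, mul_zero]
      show ⁅s (A (u * a)), s (A (u * a'))⁆ = _
      rw [← commutator_congr hσ.2.1 (e a) (e a')]
      show _ = s (tElt hT (Units.mk0 x hx0)) * ⁅s (A a), s (A a')⁆ * (s (tElt hT (Units.mk0 x hx0)))⁻¹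
      simp only [commutatorElement_def]; group
    obtain ⟨x, y, w, hx, hy, hxy, hw, h1, h2, h3⟩ := exists_offsets₂ (V := F) hq
    exact ofMul_eq_zero.1 (eq_zero_of_diag_const₂ T _ hdiag hx hy hxy hw h1 h2 h3)
  intro hdvd
  obtain ⟨z₀, hz₀⟩ := exists_prime_orderOf_dvd_card' 2 hdvd
  obtain ⟨z, hz, hzo⟩ : ∃ z ∈ σ.ker, orderOf z = 2 := ⟨z₀, z₀.2, by rw [orderOf_coe]; exact hz₀⟩
  have hz' : z ∈ ⁅R, R⁆ := mem_commutator_comap hσ (uGrp hT) hz (by
    rw [hzo]; exact Nat.prime_two.coprime_iff_not_dvd.2 (not_two_dvd_index hT))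
  have hle : ⁅R, R⁆ ≤ ψ.ker.map R₀.subtype := by
    rw [commutator_le]
    intro r hr r' hr'
    obtain ⟨a, b, k, hk1, rfl⟩ := hform r hr
    obtain ⟨a', b', k', hk2, rfl⟩ := hform r' hr'
    refine ⟨D a a', hψD a a', ?_⟩
    show ⁅s (A a), s (A a')⁆ = _
    rw [commutator_congr hσ.2.1 (g := s (A a) * s (Z b) * k) (g' := s (A a) * s (Z b))
        (h := s (A a') * s (Z b') * k') (h' := s (A a') * s (Z b'))
        (by rw [map_mul _ _ k, (MonoidHom.mem_ker).1 hk1, mul_one])
        (by rw [map_mul _ _ k', (MonoidHom.mem_ker).1 hk2, mul_one]),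
      commutator_mul_right' (h := s (A a')) (h' := s (Z b')) (by
        rw [(comm_one _ (mul_mem (hAR a) (hR₀R (hZR b))) _ (hZR b')).2]; simp),
      (comm_one _ (mul_mem (hAR a) (hR₀R (hZR b))) _ (hZR b')).2, mul_one,
      commutator_mul_left' (g := s (A a)) (g' := s (Z b)) (by
        rw [(comm_one _ (hAR a') _ (hZR b)).1]; simp),
      (comm_one _ (hAR a') _ (hZR b)).1, one_mul]
  obtain ⟨x, hx, hxz⟩ := hle hz'
  have hpow : x ^ Fintype.card Fˣ = 1 := by
    rw [← hψker x (by rw [show (x : Γ) = z from hxz]; exact hz)]; exact hx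
  have hodd : Odd (Fintype.card Fˣ) := by
    rw [Fintype.card_units]
    obtain ⟨j, hj, hcard⟩ := CfsgLib.Suzuki.card_field (F := F)
    rw [Nat.card_eq_fintype_card] at hcard
    rw [hcard]
    exact Nat.Even.sub_odd (Nat.one_le_two_pow) (Nat.even_pow.2 ⟨even_two, by omega⟩) odd_one
  have hzp : z ^ Fintype.card Fˣ = 1 := by
    rw [← show (x : Γ) = z from hxz, ← SubmonoidClass.coe_pow, hpow]; rfl
  have hd := orderOf_dvd_of_pow_eq_one hzp
  rw [hzo] at hd
  exact Nat.not_even_iff_odd.2 hodd (even_iff_two_dvd.2 hd)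

/-- No element of order two lies in the kernel of a stem extension over a large enough field. -/
theorem suzuki_not_two_dvd_ker [Finite Γ] (hT : TitsEndo θ) (hq : 9 ≤ Fintype.card F)
    {σ : Γ →* grp θ} (hσ : Cfsg.IsStemExtension σ) : ¬ 2 ∣ Nat.card σ.ker := by
  classical
  refine suzuki_not_two_dvd_ker_of_commute hT (by omega) hσ fun a b x y hx hy => ?_
  obtain ⟨C, hmem, hC, addL, addR, hinv⟩ := exists_transPairing hT (by omega) hσ.1 hσ.2.1
  letI : CommGroup σ.ker := { (inferInstance : Group σ.ker) with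
    mul_comm := fun a b => Subtype.ext (mem_center_iff.1 (hσ.2.1 b.2) a) }
  let D : F → F → Additive σ.ker := fun a b => Additive.ofMul ⟨C a b, hmem a b⟩
  have DL : ∀ a a' b, D (a + a') b = D a b + D a' b := fun a a' b => Subtype.ext (addL a a' b)
  have DR : ∀ a b b', D a (b + b') = D a b + D a b' := fun a b b' => Subtype.ext (addR a b b')
  let T : F →+ F →+ F →+ Additive σ.ker := AddMonoidHom.mk'
    (fun v1 => AddMonoidHom.mk'
      (fun v2 => AddMonoidHom.mk' (fun v3 => D (v1 * a) (θ v2 * v3 * b))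
        fun p p' => by simp only [mul_add, add_mul, DR])
      fun p p' => by ext z; simp only [AddMonoidHom.mk'_apply, AddMonoidHom.add_apply, map_add, add_mul, DR])
    fun p p' => by ext z z'; simp only [AddMonoidHom.mk'_apply, AddMonoidHom.add_apply, add_mul, DL]
  have hdiag : ∀ u, u ≠ 0 → T u u u = D a b := by
    intro u hu
    obtain ⟨z, rfl⟩ := hT.surj u
    have hz0 : z ≠ 0 := fun h => hu (by rw [h, map_zero])
    refine Subtype.ext ?_
    show C (θ z * a) (θ (θ z) * θ z * b) = C a b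
    rw [hT.sq]
    exact hinv (Units.mk0 z hz0) a b
  obtain ⟨x₁, y₁, z₁, w, h, hw⟩ := exists_offsets₃ (V := F) hq
  rw [hC a b x y hx hy]
  exact congrArg (fun k : Additive σ.ker => ((Additive.toMul k : σ.ker) : Γ))
    (eq_zero_of_diag_const₃ T _ hdiag h hw)

end Suzuki

end CfsgLib.Schur
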