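import Cfsg.Agent.CosetEnum.Upper

/-!
Lifts of the generators of a simply laced Coxeter group whose squares are one central element:
rewriting by braid moves, commutations and cancellations of squares.
-/

set_option autoImplicit false

namespace CfsgLib.Schur.CoxLift

open CfsgLib.CosetEnum

variable {E : Type*} [Group E]

theorem gword_append (s : ℕ → E) (v w : List ℕ) :
    gword s (v ++ w) = gword s v * gword s w := by
  simp [gword, List.prod_append]

theorem gword_singleton (s : ℕ → E) (x : ℕ) : gword s [x] = s x := by
  rw [gword_cons, gword_nil, mul_one]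

/-- one move on a word: cancel a square, braid or commute -/
def stepMv (n : ℕ) (adj : ℕ → ℕ → Bool) (m : ℕ × ℕ × ℕ) (st : List ℕ × ℕ) : Option (List ℕ × ℕ) :=
  if decide (m.2.1 < n) && decide (m.2.2 < n) then
    if m.2.1 == m.2.2 then
      if (st.1.drop m.1).take 2 == [m.2.1, m.2.2] then
        some (st.1.take m.1 ++ st.1.drop (m.1 + 2), st.2 + 1)
      else none
    else if adj m.2.1 m.2.2 then
      if (st.1.drop m.1).take 3 == [m.2.1, m.2.2, m.2.1] then
        some (st.1.take m.1 ++ [m.2.2, m.2.1, m.2.2] ++ st.1.drop (m.1 + 3), st.2)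
      else none
    else
      if (st.1.drop m.1).take 2 == [m.2.1, m.2.2] then
        some (st.1.take m.1 ++ [m.2.2, m.2.1] ++ st.1.drop (m.1 + 2), st.2)
      else none
  else none

/-- evaluate a number before continuing -/
def forceNat {α : Type*} (a : ℕ) (k : ℕ → α) : α :=
  match a with
  | 0 => k 0
  | b + 1 => k (b + 1)

theorem forceNat_eq {α : Type*} (a : ℕ) (k : ℕ → α) : forceNat a k = k a := by
  cases a <;> rfl

/-- evaluate a list before continuing -/
def forceList {α : Type*} : List ℕ → (List ℕ → α) → α
  | [], k => k []
  | a :: l, k => forceNat a fun a' => forceList l fun l' => k (a' :: l')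

theorem forceList_eq {α : Type*} : ∀ (l : List ℕ) (k : List ℕ → α), forceList l k = k l
  | [], k => rfl
  | a :: l, k => by simp only [forceList, forceNat_eq, forceList_eq l]

/-- a list of moves -/
def runMv (n : ℕ) (adj : ℕ → ℕ → Bool) : List (ℕ × ℕ × ℕ) → List ℕ × ℕ → Option (List ℕ × ℕ)
  | [], st => some st
  | m :: ms, st => (stepMv n adj m st).bind fun st' =>
      forceNat st'.2 fun k => forceList st'.1 fun w => runMv n adj ms (w, k)

/-- the moves reduce `w` to `v` and cancel `k` squares -/
def reduces (n : ℕ) (adj : ℕ → ℕ → Bool) (ms : List (ℕ × ℕ × ℕ)) (w v : List ℕ) (k : ℕ) : Bool :=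
  match runMv n adj ms (w, 0) with
  | some st => st.1 == v && st.2 == k
  | none => false

/-- the lifts of the first `n` generators satisfy the relations up to `z` on squares -/
structure Rels (s : ℕ → E) (n : ℕ) (adj : ℕ → ℕ → Bool) (z : E) : Prop where
  /-- `z` is central -/
  central : ∀ e, e * z = z * e
  /-- squares -/
  sq : ∀ x < n, s x * s x = z
  /-- joined letters -/
  braid : ∀ x < n, ∀ y < n, x ≠ y → adj x y = true → s x * s y * s x = s y * s x * s y
  /-- other letters -/
  comm : ∀ x < n, ∀ y < n, x ≠ y → adj x y = false → s x * s y = s y * s x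

theorem split_take (w : List ℕ) (p : ℕ) (l : List ℕ) (h : (w.drop p).take l.length = l) :
    w = w.take p ++ l ++ w.drop (p + l.length) := by
  conv_lhs => rw [← List.take_append_drop p w, ← List.take_append_drop l.length (w.drop p), h,
    List.drop_drop]
  rw [List.append_assoc]

variable {s : ℕ → E} {n : ℕ} {adj : ℕ → ℕ → Bool} {z : E}

theorem step_sound (R : Rels s n adj z) (m : ℕ × ℕ × ℕ) (st st' : List ℕ × ℕ)
    (h : stepMv n adj m st = some st') :
    z ^ st.2 * gword s st.1 = z ^ st'.2 * gword s st'.1 := by
  obtain ⟨p, a, b⟩ := m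
  obtain ⟨w, i⟩ := st
  simp only [stepMv] at h
  split at h
  · next hlt =>
    simp only [Bool.and_eq_true, decide_eq_true_eq] at hlt
    split at h
    · next hab =>
      rw [beq_iff_eq] at hab
      subst hab
      split at h
      · next hm =>
        rw [beq_iff_eq] at hm
        rw [Option.some.injEq] at h
        subst h
        conv_lhs => rw [split_take w p [a, a] hm]
        simp only [gword_append, gword_cons, gword_nil, mul_one, R.sq a hlt.1, List.length_cons,
          List.length_nil, Nat.zero_add]
        rw [pow_succ, R.central, mul_assoc, mul_assoc]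
      · exact absurd h (by simp)
    · next hab =>
      have hab' : a ≠ b := fun e => hab (beq_iff_eq.2 e)
      split at h
      · next hadj =>
        split at h
        · next hm =>
          rw [beq_iff_eq] at hm
          rw [Option.some.injEq] at h
          subst h
          conv_lhs => rw [split_take w p [a, b, a] hm]
          simp only [gword_append, gword_cons, gword_nil, mul_one, List.length_cons,
            List.length_nil, Nat.zero_add]
          rw [← mul_assoc (s a), R.braid a hlt.1 b hlt.2 hab' hadj, mul_assoc (s b)]
        · exact absurd h (by simp)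
      · next hadj =>
        split at h
        · next hm =>
          rw [beq_iff_eq] at hm
          rw [Option.some.injEq] at h
          subst h
          conv_lhs => rw [split_take w p [a, b] hm]
          simp only [gword_append, gword_cons, gword_nil, mul_one, List.length_cons,
            List.length_nil, Nat.zero_add]
          rw [R.comm a hlt.1 b hlt.2 hab' (by simpa using hadj)]
        · exact absurd h (by simp)
  · exact absurd h (by simp)

theorem run_sound (R : Rels s n adj z) : ∀ (ms : List (ℕ × ℕ × ℕ)) (st st' : List ℕ × ℕ),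
    runMv n adj ms st = some st' → z ^ st.2 * gword s st.1 = z ^ st'.2 * gword s st'.1
  | [], st, st', h => by simp only [runMv, Option.some.injEq] at h; rw [h]
  | m :: ms, st, st', h => by
    simp only [runMv, Option.bind_eq_some_iff, forceNat_eq, forceList_eq, Prod.mk.eta] at h
    obtain ⟨st1, h1, h2⟩ := h
    rw [step_sound R m st st1 h1, run_sound R ms st1 st' h2]

theorem eq_of_reduces (R : Rels s n adj z) {ms : List (ℕ × ℕ × ℕ)} {w v : List ℕ} {k : ℕ}
    (h : reduces n adj ms w v k = true) : gword s w = z ^ k * gword s v := by
  unfold reduces at h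
  split at h
  · next st hst =>
    simp only [Bool.and_eq_true, beq_iff_eq] at h
    have := run_sound R ms _ _ hst
    rw [pow_zero, one_mul, h.1, h.2] at this
    exact this
  · exact absurd h (by simp)

/-- every system of lifts sends `w` to `z ^ k` times `v` -/
def RedP.{u} (n : ℕ) (adj : ℕ → ℕ → Bool) (w v : List ℕ) (k : ℕ) : Prop :=
  ∀ {E : Type u} [Group E] (s : ℕ → E) (z : E), Rels s n adj z → gword s w = z ^ k * gword s v

theorem RedP.of_reduces.{u} {ms : List (ℕ × ℕ × ℕ)} {w v : List ℕ} {k : ℕ}
    (h : reduces n adj ms w v k = true) : RedP.{u} n adj w v k :=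
  fun _ _ R => eq_of_reduces R h

theorem RedP.trans.{u} {w v x : List ℕ} {k l : ℕ} (h : RedP.{u} n adj w v k)
    (h' : RedP.{u} n adj v x l) : RedP.{u} n adj w x (k + l) := fun s z R => by
  rw [h s z R, h' s z R, pow_add, mul_assoc]

theorem gword_reverse_mul (R : Rels s n adj 1) :
    ∀ w : List ℕ, (∀ x ∈ w, x < n) → gword s w.reverse * gword s w = 1
  | [], _ => by simp [gword_nil]
  | x :: w, h => by
    rw [List.reverse_cons, gword_append, gword_singleton, gword_cons, mul_assoc,
      ← mul_assoc (s x), R.sq x (h x List.mem_cons_self), one_mul,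
      gword_reverse_mul R w fun y hy => h y (List.mem_cons_of_mem _ hy)]

theorem gword_reverse (R : Rels s n adj 1) {w : List ℕ} (h : ∀ x ∈ w, x < n) :
    gword s w.reverse = (gword s w)⁻¹ :=
  eq_inv_of_mul_eq_one_left (gword_reverse_mul R w h)

theorem gword_palindrome (R : Rels s n adj 1) {w : List ℕ} (h : ∀ x ∈ w, x < n)
    (hp : w.reverse = w) : gword s w * gword s w = 1 := by
  have := gword_reverse_mul R w h
  rwa [hp] at this

theorem gword_scale {c : E} (hc : ∀ e, e * c = c * e) (s : ℕ → E) :
    ∀ w : List ℕ, gword (fun x => c * s x) w = c ^ w.length * gword s w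
  | [] => by simp [gword_nil]
  | x :: w => by
    rw [gword_cons, gword_scale hc s w, gword_cons, List.length_cons, pow_succ']
    simp only [mul_assoc]
    rw [← mul_assoc (s x), show Commute (s x) (c ^ w.length) from
      (show Commute (s x) c from hc (s x)).pow_right _]
    simp only [mul_assoc]

theorem Rels.scale (R : Rels s n adj z) {c : E} (hc : ∀ e, e * c = c * e) (h : c * c * z = 1) :
    Rels (fun x => c * s x) n adj 1 := by
  have key : ∀ a b : E, c * a * (c * b) = c * c * (a * b) := fun a b => by
    rw [mul_assoc, ← mul_assoc a, hc a]; simp only [mul_assoc]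
  refine ⟨fun e => by rw [mul_one, one_mul], fun x hx => ?_, fun x hx y hy hne ha => ?_,
    fun x hx y hy hne ha => ?_⟩
  · rw [key, R.sq x hx]; exact h
  · have h3 : ∀ a b d : E, c * a * (c * b) * (c * d) = c * c * c * (a * b * d) := fun a b d => by
      rw [key, show c * c * (a * b) * (c * d) = c * c * ((a * b * c) * d) by
        simp only [mul_assoc], hc (a * b)]
      simp only [mul_assoc]
    rw [h3, h3, R.braid x hx y hy hne ha]
  · rw [key, key, R.comm x hx y hy hne ha]

end CfsgLib.Schur.CoxLift
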